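import Mathlib
import Cfsg.Prelude.Def_BlockRank
import Cfsg.Agent.Lib.Helper77.Principal
import Cfsg.Agent.Lib.Helper82.PrincipalBlock
import Cfsg.Agent.Lib.Helper78.WeakOrth
import Cfsg.Agent.Lib.Helper80.Inflation

/-!
# The principal block: Brauer pairs, `p`-regular rank one (helper76)
-/

set_option autoImplicit false

namespace Cfsg.Agent.Lib.Helper76

open Cfsg Cfsg.Agent.Lib.Helper77 Cfsg.Agent.Lib.Helper78 Cfsg.Agent.Lib.Helper80
open scoped ComplexConjugate

universe u

/-- Every element normalizing `K` stabilizes the principal block of `K`. -/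
theorem stabilizesBlock_principalBlock {G : Type u} [Group G] [Finite G] {M : Ideal AlgInt}
    (hM : M.IsPrime) (K : Subgroup G) {x : G} (hx : x ∈ Subgroup.normalizer (K : Set G)) :
    StabilizesBlock K (principalBlock M K) x := by
  let _ : Fintype K := Fintype.ofFinite K
  rw [stabilizesBlock_iff_conjSet_eq hM isPBlock_principalBlock]
  refine ⟨hx, ?_⟩
  have hx' : K = K.map (MulAut.conj x).toMonoidHom :=
    (Subgroup.mem_normalizer_iff_map_conj_eq.1 hx).symm
  have := hM
  rw [eq_principalBlock_iff M (isPBlock_conjSet hx' isPBlock_principalBlock)]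
  exact ⟨trivIrr K, trivIrr_mem_principalBlock hM, fun _ _ _ => rfl⟩

/-- The principal pair on a `p`-subgroup is a Brauer pair of the principal block. -/
theorem isBrauerPairOf_principal {G : Type u} [Group G] [Finite G] {p : ℕ} [Fact p.Prime]
    {M : Ideal AlgInt} (hM : IsPModular p M) {Q : Subgroup G} (hQ : IsPGroup p Q) :
    IsBrauerPairOf p M (principalBlock M G) Q
      (principalBlock M (Subgroup.centralizer (Q : Set G))) := by
  let _ : Fintype G := Fintype.ofFinite G
  have := pmod_isPrime hM
  rw [isBrauerPairOf_iff M hM]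
  exact ⟨⟨hQ, isPBlock_principalBlock⟩, isPBlock_principalBlock, isABlockOf_prinA M hM hQ⟩

/-- An element in the kernel of all characters of a block is `p`-regular. -/
theorem isPRegular_of_forall_mem_block {G : Type u} [Group G] [Finite G] {p : ℕ}
    {M : Ideal AlgInt} (hM : IsPModular p M) {B : Set (IrrCharacter G)} (hB : IsPBlock M B)
    {y : G} (hy : ∀ χ ∈ B, (χ : G → ℂ) y = (χ : G → ℂ) 1) : IsPRegular p y := by
  classical
  let _ : Fintype G := Fintype.ofFinite G
  intro hdvd
  have h0 := Cfsg.Agent.Lib.Helper78.blockCoeff_eq_zero_of_singular hM hB y hdvd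
  rw [blockCoeff_eq_sum] at h0
  have hcard : (Fintype.card G : ℂ)⁻¹ ≠ 0 := by
    apply inv_ne_zero
    exact_mod_cast Fintype.card_ne_zero
  have h1 := (mul_eq_zero.mp h0).resolve_left hcard
  obtain ⟨χ₀, hχ₀⟩ := IsPBlock.nonempty (pmod_isPrime hM) hB
  have hterm : ∀ χ : IrrCharacter G, (if χ ∈ B then (1 : ℂ) else 0) *
      ((χ : G → ℂ) 1 * conj ((χ : G → ℂ) y)) =
      (((if χ ∈ B then (charDegree (χ : G → ℂ)) ^ 2 else 0 : ℕ) : ℕ) : ℂ) := by
    intro χ
    by_cases h : χ ∈ B
    · rw [if_pos h, if_pos h, hy χ h, char_one_eq_charDegree (isCharacter_of_irr χ.2)]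
      simp [sq]
    · rw [if_neg h, if_neg h]; simp
  simp only [hterm] at h1
  rw [← Nat.cast_sum, Nat.cast_eq_zero, Finset.sum_eq_zero_iff] at h1
  have h2 := h1 χ₀ (Finset.mem_univ _)
  rw [if_pos hχ₀] at h2
  exact (pow_pos (charDegree_pos_of_irr χ₀.2) 2).ne' h2

/-- The `p`-regular rank of the principal block is one iff all its characters are constant on
`p`-regular elements. -/
theorem blockRank_principalBlock_eq_one_iff {G : Type u} [Group G] [Finite G] {p : ℕ}
    {M : Ideal AlgInt} (hM : IsPModular p M) :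
    blockRank p (principalBlock M G) = 1 ↔
      ∀ χ ∈ principalBlock M G, ∀ g : G, IsPRegular p g → (χ : G → ℂ) g = (χ : G → ℂ) 1 := by
  classical
  have hMp := pmod_isPrime hM
  have hreg1 : IsPRegular p (1 : G) := by
    unfold IsPRegular
    rw [orderOf_one]
    exact hM.1.one_lt.ne' ∘ Nat.dvd_one.mp
  set v₀ : G → ℂ := pRegularPart p ((trivIrr G : IrrCharacter G) : G → ℂ) with hv₀
  have hv₀1 : v₀ 1 = 1 := by
    simp only [hv₀, pRegularPart, if_pos hreg1]
    rfl
  have hv₀ne : v₀ ≠ 0 := by
    intro h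
    rw [h] at hv₀1
    exact zero_ne_one hv₀1
  have hv₀mem : v₀ ∈ (fun χ : IrrCharacter G => pRegularPart p (χ : G → ℂ)) '' principalBlock M G :=
    ⟨trivIrr G, trivIrr_mem_principalBlock hMp, rfl⟩
  unfold blockRank
  constructor
  · intro h χ hχ g hg
    have h1 := (finrank_eq_one_iff_of_nonzero' (⟨v₀, Submodule.subset_span hv₀mem⟩ :
      Submodule.span ℂ ((fun χ : IrrCharacter G => pRegularPart p (χ : G → ℂ)) ''
        principalBlock M G)) (by
          intro h0
          exact hv₀ne (congrArg Subtype.val h0))).mp h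
    obtain ⟨c, hc⟩ := h1 ⟨pRegularPart p (χ : G → ℂ), Submodule.subset_span ⟨χ, hχ, rfl⟩⟩
    have hc' : c • v₀ = pRegularPart p (χ : G → ℂ) := congrArg Subtype.val hc
    have e1 := congrFun hc' 1
    have eg := congrFun hc' g
    simp only [Pi.smul_apply, smul_eq_mul, hv₀1, mul_one, pRegularPart, if_pos hreg1] at e1
    simp only [Pi.smul_apply, smul_eq_mul, hv₀, pRegularPart, if_pos hg] at eg
    rw [← eg, ← e1]
    show c * 1 = c
    rw [mul_one]
  · intro h
    have hspan : Submodule.span ℂ ((fun χ : IrrCharacter G => pRegularPart p (χ : G → ℂ)) ''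
        principalBlock M G) = Submodule.span ℂ {v₀} := by
      apply le_antisymm
      · rw [Submodule.span_le]
        rintro _ ⟨χ, hχ, rfl⟩
        rw [SetLike.mem_coe, Submodule.mem_span_singleton]
        refine ⟨(χ : G → ℂ) 1, ?_⟩
        funext g
        by_cases hg : IsPRegular p g
        · simp only [Pi.smul_apply, smul_eq_mul, hv₀, pRegularPart, if_pos hg]
          rw [h χ hχ g hg]
          show (χ : G → ℂ) 1 * 1 = _
          rw [mul_one]
        · simp only [Pi.smul_apply, smul_eq_mul, hv₀, pRegularPart, if_neg hg, mul_zero]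
      · rw [Submodule.span_le, Set.singleton_subset_iff]
        exact Submodule.subset_span hv₀mem
    rw [hspan]
    exact finrank_span_singleton hv₀ne

end Cfsg.Agent.Lib.Helper76
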