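import Mathlib
import Cfsg.Prelude.Def_Blocks
import Cfsg.Agent.Lib.Helper76.TIFaithA

/-!
# Variant of `char_comm_eq_of_restrict_norm_one` for a homomorphism `C →* K`
-/

set_option autoImplicit false

namespace Cfsg.Agent.Lib.Helper76

open Module Representation
open scoped ComplexConjugate

universe u

variable {K : Type u} [Group K]

/-- If `α` fixes the irreducible character `θ`, fixes `C` pointwise, and `[θ_C, θ_C] = 1`, then
`θ (α k * k⁻¹) = θ 1`. -/
theorem char_comm_eq_of_comp_norm_one [Fintype K] {θ : K → ℂ} (hθ : Cfsg.IsIrrCharacter K θ)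
    (α : K ≃* K) (hα : ∀ k, θ (α k) = θ k) {C : Type*} [Group C] [Fintype C] (ι : C →* K)
    (hC : ∀ c, α (ι c) = ι c)
    (hn : Cfsg.classInner (fun c : C => θ (ι c)) (fun c : C => θ (ι c)) = 1) (k : K) :
    θ (α k * k⁻¹) = θ 1 := by
  classical
  obtain ⟨n, ρ, hρ, rfl⟩ := hθ
  set σ : Representation ℂ K (Fin n → ℂ) := ρ.comp α.toMonoidHom with hσ
  have hσi : σ.IsIrreducible := isIrreducible_comp_equiv ρ α hρ
  have hσc : σ.character = ρ.character := by
    ext g
    exact hα g
  have hne : (Nat.card K : ℂ) ≠ 0 := by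
    exact_mod_cast Nat.card_pos.ne'
  let _ : Invertible (Nat.card K : ℂ) := invertibleOfNonzero hne
  have h1 := Representation.char_orthonormal ρ σ
  have h2 := Representation.char_orthonormal ρ ρ
  have hE : Nonempty (σ.Equiv ρ) := by
    by_contra hE
    rw [if_neg hE, hσc, h2, if_pos ⟨Representation.Equiv.refl ρ⟩] at h1
    exact one_ne_zero h1
  obtain ⟨φ⟩ := hE
  have hφ : ∀ (g : K) (v : Fin n → ℂ), φ.toLinearMap (ρ (α g) v) = ρ g (φ.toLinearMap v) := by
    intro g v
    exact φ.toIntertwiningMap.isIntertwining σ ρ g v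
  set τ : Representation ℂ C (Fin n → ℂ) := ρ.comp ι with hτ
  have hneC : (Nat.card C : ℂ) ≠ 0 := by
    exact_mod_cast Nat.card_pos.ne'
  let _ : Invertible (Nat.card C : ℂ) := invertibleOfNonzero hneC
  have h3 := Representation.card_inv_mul_sum_char_mul_char_eq_finrank τ τ
  have h4 : finrank ℂ (IntertwiningMap τ τ) = 1 := by
    have e : Cfsg.classInner (fun c : C => ρ.character (ι c)) (fun c : C => ρ.character (ι c)) =
        (Nat.card C : ℂ)⁻¹ * ∑ g : C, τ.character g * τ.character g⁻¹ := by
      unfold Cfsg.classInner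
      congr 1
      apply Finset.sum_congr rfl
      intro g _
      rw [rep_char_inv]
      rfl
    rw [e, h3] at hn
    exact_mod_cast hn
  let M : IntertwiningMap τ τ :=
    LinearMap.intertwiningMap_of_isIntertwiningMap τ τ φ.toLinearMap (fun c v => by
      have := hφ (ι c) v
      rw [hC c] at this
      exact this)
  have hV : Nontrivial (Fin n → ℂ) := ((isIrreducible_iff' ρ).mp hρ).1
  obtain ⟨v0, hv0⟩ := exists_ne (0 : Fin n → ℂ)
  have hI : IntertwiningMap.id τ ≠ 0 := by
    intro h
    apply hv0
    have := congrArg (fun f : IntertwiningMap τ τ => f v0) h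
    exact this
  obtain ⟨c, hc⟩ := (finrank_eq_one_iff_of_nonzero' (IntertwiningMap.id τ) hI).1 h4 M
  have hM : ∀ v, φ.toLinearMap v = c • v := by
    intro v
    have := congrArg (fun f : IntertwiningMap τ τ => f v) hc
    exact this.symm
  have hc0 : c ≠ 0 := by
    rintro rfl
    apply hv0
    have h5 := hM v0
    rw [zero_smul] at h5
    have h6 : φ.toLinearEquiv v0 = 0 := h5
    simpa using h6
  have h7 : ρ (α k) = ρ k := by
    apply LinearMap.ext
    intro v
    have := hφ k v
    rw [hM, hM, map_smul] at this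
    exact smul_right_injective _ hc0 this
  have h8 : ρ (α k * k⁻¹) = ρ 1 := by
    rw [map_mul, h7, ← map_mul, mul_inv_cancel]
  simp only [Representation.character, h8]

end Cfsg.Agent.Lib.Helper76
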