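import Mathlib
import Cfsg.Prelude.Def_Blocks
import Cfsg.Agent.Lib.Helper76.TIFaithA2
import Cfsg.Agent.Lib.Helper76.TIFaithB
import Cfsg.Agent.Lib.Helper76.TIFaithC
import Cfsg.Agent.Lib.Helper15.Clifford2
import Cfsg.Agent.S4444

/-!
# Faithful characters of degree at most `p - 1` and coprime action of a `p`-group
-/

set_option autoImplicit false

namespace Cfsg.Agent.Lib.Helper76

open Cfsg Cfsg.Agent.Lib.Helper15 Cfsg.Agent.Lib.Helper74
open scoped ComplexConjugate

theorem exists_constituent_ne {G : Type*} [Group G] [Finite G] (K : Subgroup G) [Fintype K]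
    {χ : G → ℂ} (hχ : IsCharacter G χ) (w : K) (hw : χ w ≠ χ 1) :
    ∃ θ : IrrCharacter K, classInner (fun k : K => χ k) (θ : K → ℂ) ≠ 0 ∧
      (θ : K → ℂ) w ≠ (θ : K → ℂ) 1 := by
  classical
  by_contra h
  push Not at h
  apply hw
  have e := IsCharacter.eq_sum_classInner (IsCharacter.restrict hχ K)
  have e1 := congrFun e w
  have e2 := congrFun e 1
  simp only [Finset.sum_apply, Pi.smul_apply, smul_eq_mul] at e1 e2
  have e1' : χ w = _ := e1
  have e2' : χ 1 = _ := e2
  rw [e1', e2']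
  apply Finset.sum_congr rfl
  intro θ _
  by_cases h1 : classInner (fun k : K => χ k) (θ : K → ℂ) = 0
  · have h1' : classInner (fun h : K => χ (h : G)) (θ : K → ℂ) = 0 := h1
    rw [h1', zero_mul, zero_mul]
  · rw [h θ h1]

theorem char_eq_zero_of_degree_zero {G : Type*} [Group G] [Finite G] {ψ : G → ℂ}
    (hψ : IsCharacter G ψ) (h : charDegree ψ = 0) : ψ = 0 := by
  funext g
  have := norm_le_charDegree hψ g
  rw [h] at this
  simpa using this

theorem small_degree_main {Γ : Type*} [Group Γ] [Finite Γ] {p : ℕ} (hp : p.Prime)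
    (K : Subgroup Γ) [hKn : K.Normal] (hK : (Nat.card K).Coprime p) (P : Subgroup Γ)
    (hP : IsPGroup p P) (hnc : ∃ y ∈ P, ∃ k ∈ K, y * k ≠ k * y) {χ : Γ → ℂ}
    (hχ : IsCharacter Γ χ) (hfaith : ∀ g, χ g = χ 1 → g = 1) (hdeg : charDegree χ + 1 ≤ p) :
    charDegree χ + 1 = p ∧ IsIrrCharacter K (fun k : K => χ k) := by
  classical
  have : Fact p.Prime := ⟨hp⟩
  let _ : Fintype Γ := Fintype.ofFinite _
  let _ : Fintype K := Fintype.ofFinite _
  obtain ⟨y, hy, k0, hk0, hyk⟩ := hnc
  have hwK : y * k0 * y⁻¹ * k0⁻¹ ∈ K := K.mul_mem (hKn.conj_mem _ hk0 y) (K.inv_mem hk0)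
  have hw1 : y * k0 * y⁻¹ * k0⁻¹ ≠ 1 := by
    intro h
    apply hyk
    have := congrArg (fun t => t * k0 * y) h
    simpa [mul_assoc] using this
  obtain ⟨θ, h0, hθw⟩ := exists_constituent_ne K hχ ⟨_, hwK⟩ (fun h => hw1 (hfaith _ h))
  let T : Subgroup Γ :=
    { carrier := {x | x ∈ P ∧ cj K x (θ : K → ℂ) = θ}
      mul_mem' := by
        rintro a b ⟨ha, ha'⟩ ⟨hb, hb'⟩
        exact ⟨mul_mem ha hb, by rw [← cj_cj, ha', hb']⟩
      one_mem' := ⟨one_mem _, cj_one K _⟩
      inv_mem' := by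
        rintro a ⟨ha, ha'⟩
        refine ⟨inv_mem ha, ?_⟩
        conv_lhs => rw [← ha']
        exact cj_inv_cj K a _ }
  have hTP : T ≤ P := fun x hx => hx.1
  have hB := card_mul_degree_le K hχ θ.2 h0 P T (fun x => Iff.rfl)
  have hdθ : 0 < charDegree (θ : K → ℂ) := by
    rw [Nat.pos_iff_ne_zero]
    intro h
    have h1 := IsCharacter.charDegree_eq (IrrCharacter.isCharacter θ)
    rw [h] at h1
    exact irr_one_ne_zero θ.2 (by simpa using h1.symm)
  have hTpos : 0 < Nat.card T := Nat.card_pos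
  have hPT : P ≤ T := by
    rw [← Subgroup.relIndex_eq_one]
    by_contra hne
    have h1 : T.relIndex P * Nat.card T = Nat.card P := by
      have := Subgroup.relIndex_mul_relIndex ⊥ T P bot_le hTP
      rw [Subgroup.relIndex_bot_left, Subgroup.relIndex_bot_left] at this
      rw [mul_comm]
      exact this
    obtain ⟨n, hn⟩ := IsPGroup.iff_card.mp hP
    have h2 : T.relIndex P ∣ p ^ n := hn ▸ Dvd.intro _ h1
    obtain ⟨j, -, hj⟩ := (Nat.dvd_prime_pow hp).mp h2
    have hj0 : j ≠ 0 := by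
      rintro rfl
      exact hne (by simpa using hj)
    have h3 : p ≤ T.relIndex P := by
      rw [hj]
      exact Nat.le_self_pow hj0 p
    have h4 : p * Nat.card T * charDegree (θ : K → ℂ) ≤ Nat.card T * charDegree χ := by
      refine le_trans ?_ hB
      rw [← h1]
      exact Nat.mul_le_mul_right _ (Nat.mul_le_mul_right _ h3)
    have h5 : p * charDegree (θ : K → ℂ) ≤ charDegree χ := by
      have : Nat.card T * (p * charDegree (θ : K → ℂ)) ≤ Nat.card T * charDegree χ := by
        calc Nat.card T * (p * charDegree (θ : K → ℂ))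
            = p * Nat.card T * charDegree (θ : K → ℂ) := by ring
          _ ≤ _ := h4
      exact Nat.le_of_mul_le_mul_left this hTpos
    have h6 : p ≤ p * charDegree (θ : K → ℂ) := Nat.le_mul_of_pos_right _ hdθ
    omega
  have hTeq : T = P := le_antisymm hTP hPT
  have hle : charDegree (θ : K → ℂ) ≤ charDegree χ := by
    rw [hTeq] at hB
    exact Nat.le_of_mul_le_mul_left hB Nat.card_pos
  set C : Subgroup Γ := K ⊓ Subgroup.centralizer (P : Set Γ) with hC
  let _ : Fintype C := Fintype.ofFinite _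
  have hCG : C ≤ K := inf_le_left
  have hcop : (Nat.card K).Coprime (Nat.card P) := by
    obtain ⟨n, hn⟩ := IsPGroup.iff_card.mp hP
    rw [hn]
    exact Nat.Coprime.pow_right n hK
  obtain ⟨g1, g2, -, -⟩ := Cfsg.Agent.S4444.result K P (fun s _ g hg => hKn.conj_mem g hg s)
    hcop p hp hP C hC hCG
  have hinvθ : ∀ s ∈ P, ∀ g g' : K, (g' : Γ) = s * g * s⁻¹ →
      (θ : K → ℂ) g' = (θ : K → ℂ) g := by
    intro s hs g g' hg
    have := congrFun (hPT hs).2 g
    rw [cj_apply] at this
    rw [← this]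
    have e : g' = ⟨s * g * s⁻¹, hKn.conj_mem g g.2 s⟩ := Subtype.ext hg
    rw [e]
  obtain ⟨β, ⟨m, hm, hpm⟩, huniq⟩ := g1 θ hinvθ
  have hmod := g2 θ hinvθ β m hm hpm
  have hθC : IsCharacter C (fun c : C => (θ : K → ℂ) ⟨c, hCG c.2⟩) :=
    IsCharacter.comp (irr_char θ.2) (Subgroup.inclusion hCG)
  obtain ⟨mm, hmm⟩ := IsCharacter.exists_mult hθC
  have hmv : ∀ ψ : IrrCharacter C,
      classInner (fun c : C => (θ : K → ℂ) ⟨c, hCG c.2⟩) (ψ : C → ℂ) = mm ψ := by
    intro ψ
    rw [hmm, classInner_sum_irr]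
  have hdegθ : charDegree (θ : K → ℂ) = ∑ ψ : IrrCharacter C, mm ψ * charDegree (ψ : C → ℂ) := by
    have e := congrFun hmm 1
    simp only [Finset.sum_apply, Pi.smul_apply, smul_eq_mul] at e
    have e' : (θ : K → ℂ) 1 = ∑ ψ : IrrCharacter C, (mm ψ : ℂ) * (ψ : C → ℂ) 1 := e
    rw [← IsCharacter.charDegree_eq (irr_char θ.2)] at e'
    have e2 : ∀ ψ : IrrCharacter C, (ψ : C → ℂ) 1 = (charDegree (ψ : C → ℂ) : ℂ) :=
      fun ψ => (IsCharacter.charDegree_eq (IrrCharacter.isCharacter ψ)).symm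
    simp only [e2] at e'
    exact_mod_cast e'
  have hge : p ≤ charDegree (θ : K → ℂ) + 1 := by
    by_contra hlt
    push Not at hlt
    have hmle : ∀ ψ : IrrCharacter C, mm ψ ≤ charDegree (θ : K → ℂ) := by
      intro ψ
      have hdψ : 0 < charDegree (ψ : C → ℂ) := by
        rw [Nat.pos_iff_ne_zero]
        intro h
        have h1 := IsCharacter.charDegree_eq (IrrCharacter.isCharacter ψ)
        rw [h] at h1
        exact irr_one_ne_zero ψ.2 (by simpa using h1.symm)
      calc mm ψ ≤ mm ψ * charDegree (ψ : C → ℂ) := Nat.le_mul_of_pos_right _ hdψ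
        _ ≤ ∑ ψ : IrrCharacter C, mm ψ * charDegree (ψ : C → ℂ) :=
          Finset.single_le_sum (f := fun ψ : IrrCharacter C => mm ψ * charDegree (ψ : C → ℂ))
            (fun _ _ => Nat.zero_le _) (Finset.mem_univ ψ)
        _ = _ := hdegθ.symm
    have hzero : ∀ ψ : IrrCharacter C, ψ ≠ β → mm ψ = 0 := by
      intro ψ hψ
      have hd : p ∣ mm ψ := by
        by_contra hnd
        exact hψ (huniq ψ ⟨mm ψ, hmv ψ, hnd⟩)
      apply Nat.eq_zero_of_dvd_of_lt hd
      have := hmle ψ
      omega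
    have hmβ : mm β = m := by
      have := (hmv β).symm.trans hm
      exact_mod_cast this
    have hm1 : m = 1 := by
      have hmle' := hmle β
      rw [hmβ] at hmle'
      rcases hmod with h | h
      · have h1 : (p : ℤ) ∣ (m : ℤ) - 1 := (Int.modEq_iff_dvd.mp h.symm)
        have hm0 : m ≠ 0 := by
          rintro rfl
          exact hpm (dvd_zero p)
        have h2 : (m : ℤ) - 1 = 0 := by
          apply Int.eq_zero_of_abs_lt_dvd h1
          rw [abs_lt]
          constructor <;> omega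
        omega
      · have h1 : (p : ℤ) ∣ (m : ℤ) - (-1) := (Int.modEq_iff_dvd.mp h.symm)
        have h2 : (m : ℤ) - (-1) = 0 := by
          apply Int.eq_zero_of_abs_lt_dvd h1
          rw [abs_lt]
          constructor <;> omega
        omega
    have hθβ : (fun c : C => (θ : K → ℂ) ⟨c, hCG c.2⟩) = (β : C → ℂ) := by
      rw [hmm, Finset.sum_eq_single β]
      · rw [hmβ, hm1]; simp
      · intro ψ _ hψ
        rw [hzero ψ hψ]; simp
      · intro h; exact absurd (Finset.mem_univ _) h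
    apply hθw
    have h1 := char_comm_eq_of_comp_norm_one θ.2 (MulAut.conjNormal y : K ≃* K)
      (fun k => congrFun (hPT hy).2 k) (Subgroup.inclusion hCG)
      (by
        intro c
        apply Subtype.ext
        have hc : (c : Γ) ∈ Subgroup.centralizer (P : Set Γ) := (Subgroup.mem_inf.mp c.2).2
        have h2 := Subgroup.mem_centralizer_iff.mp hc y hy
        change y * (c : Γ) * y⁻¹ = c
        rw [h2, mul_inv_cancel_right])
      (by
        have : (fun c : C => (θ : K → ℂ) (Subgroup.inclusion hCG c)) = (β : C → ℂ) := hθβ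
        rw [this, irr_inner_self β.2])
      ⟨k0, hk0⟩
    exact h1
  have hdeq : charDegree (θ : K → ℂ) = charDegree χ := by omega
  refine ⟨by omega, ?_⟩
  have hsub := char_sub_irr (IsCharacter.restrict hχ K) θ.2 h0
  have hz : charDegree ((fun k : K => χ k) - (θ : K → ℂ)) = 0 := by
    have h1 := IsCharacter.charDegree_eq hsub
    have h2 := IsCharacter.charDegree_eq (irr_char θ.2)
    have h3 := IsCharacter.charDegree_eq hχ
    have h4 : ((fun k : K => χ k) - (θ : K → ℂ)) 1 = χ 1 - (θ : K → ℂ) 1 := rfl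
    rw [h4, ← h2, ← h3, hdeq, sub_self] at h1
    exact_mod_cast h1
  have h5 := char_eq_zero_of_degree_zero hsub hz
  have h6 : (fun k : K => χ k) = (θ : K → ℂ) := sub_eq_zero.mp h5
  rw [h6]
  exact θ.2

end Cfsg.Agent.Lib.Helper76
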