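import Mathlib
import Cfsg.Prelude.Def_Local
import Cfsg.Agent.Lib.Lead.Cores
import Cfsg.Agent.Lib.Helper76.PSolvable
import Cfsg.Agent.Lib.Helper1.CoprimeSylow

/-!
# Group theory for Ito's theorem on faithful characters of degree `≤ p - 1`
-/

set_option autoImplicit false
open scoped Pointwise

namespace Cfsg.Agent.Lib.Helper76

open Cfsg Cfsg.Agent.Lib.Lead

variable {G : Type*} [Group G] [Finite G] {p : ℕ} [Fact p.Prime] (P : Sylow p G)

theorem conj_mem_of_centralizes
    (hcent : ∀ y ∈ (P : Subgroup G), ∀ k ∈ pPrimeCore p G, k * y = y * k) {z g : G}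
    (hz : z ∈ (P : Subgroup G))
    (h : QuotientGroup.mk' (pPrimeCore p G) (g * z * g⁻¹) ∈
      (P : Subgroup G).map (QuotientGroup.mk' (pPrimeCore p G))) :
    g * z * g⁻¹ ∈ (P : Subgroup G) := by
  set K := pPrimeCore p G with hK
  obtain ⟨y, hy, hyq⟩ := h
  have hk : y⁻¹ * (g * z * g⁻¹) ∈ K := by
    rw [← QuotientGroup.eq]
    exact hyq
  set k := y⁻¹ * (g * z * g⁻¹) with hkdef
  have hyk : g * z * g⁻¹ = y * k := by rw [hkdef, mul_inv_cancel_left]
  have hcomm : Commute y k := (hcent y hy k hk).symm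
  have hpz : z ^ Nat.card (P : Subgroup G) = 1 := by
    have := pow_card_eq_one' (x := (⟨z, hz⟩ : (P : Subgroup G)))
    exact congrArg Subtype.val this
  have hpy : y ^ Nat.card (P : Subgroup G) = 1 := by
    have := pow_card_eq_one' (x := (⟨y, hy⟩ : (P : Subgroup G)))
    exact congrArg Subtype.val this
  have hpk : k ^ Nat.card (P : Subgroup G) = 1 := by
    have h2 : (g * z * g⁻¹) ^ Nat.card (P : Subgroup G) = 1 := by
      rw [conj_pow, hpz]; simp
    rw [hyk, hcomm.mul_pow, hpy, one_mul] at h2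
    exact h2
  have hkk : k ^ Nat.card K = 1 := by
    have := pow_card_eq_one' (x := (⟨k, hk⟩ : K))
    exact congrArg Subtype.val this
  have hcop : Nat.Coprime (Nat.card (P : Subgroup G)) (Nat.card K) := by
    obtain ⟨n, hn⟩ := (IsPGroup.iff_card.mp P.2)
    rw [hn]
    exact Nat.Coprime.pow_left n (card_pPrimeCore_coprime p).symm
  have hk1 : k = 1 := by
    have h3 : orderOf k ∣ Nat.gcd (Nat.card (P : Subgroup G)) (Nat.card K) :=
      Nat.dvd_gcd (orderOf_dvd_of_pow_eq_one hpk) (orderOf_dvd_of_pow_eq_one hkk)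
    rw [hcop, Nat.dvd_one, orderOf_eq_one_iff] at h3
    exact h3
  rw [hyk, hk1, mul_one]
  exact hy

theorem not_centralizes_of_comm (hsolv : IsPSolvable p G)
    (hab : ∀ x ∈ (P : Subgroup G), ∀ y ∈ (P : Subgroup G), x * y = y * x)
    (hN : ¬ (P : Subgroup G).Normal) :
    ¬ ∀ y ∈ (P : Subgroup G), ∀ k ∈ pPrimeCore p G, k * y = y * k := by
  intro hcent
  set K := pPrimeCore p G with hK
  have hcore : pPrimeCore p (G ⧸ K) = ⊥ := pPrimeCore_quotient_pPrimeCore p G
  have hs : IsPSolvable p (G ⧸ K) := isPSolvable_quotient K hsolv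
  have hHH := centralizer_pCore_le hs hcore
  have hsurj : Function.Surjective (QuotientGroup.mk' K) := QuotientGroup.mk'_surjective K
  have hle : pCore p (G ⧸ K) ≤ (P : Subgroup G).map (QuotientGroup.mk' K) := by
    have := pCore_le_sylow (P.mapSurjective hsurj)
    rwa [Sylow.coe_mapSurjective] at this
  apply hN
  constructor
  intro z hz g
  apply conj_mem_of_centralizes P hcent hz
  apply hle
  have h1 : QuotientGroup.mk' K z ∈ pCore p (G ⧸ K) := by
    apply hHH
    rw [Subgroup.mem_centralizer_iff]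
    intro q hq
    obtain ⟨y, hy, rfl⟩ := hle hq
    rw [← map_mul, ← map_mul, hab y hy z hz]
  rw [map_mul, map_mul, map_inv]
  exact (inferInstance : (pCore p (G ⧸ K)).Normal).conj_mem _ h1 _

/-- If a solvable group `A` acts coprimely and nontrivially on `K`, it acts nontrivially on some
`A`-invariant Sylow subgroup of `K`. -/
theorem exists_invariant_sylow_not_centralized (A K : Subgroup G)
    (hAK : A ≤ Subgroup.normalizer (K : Set G)) (hcop : (Nat.card A).Coprime (Nat.card K))
    (hsolv : Group.IsSolvable A ∨ Group.IsSolvable K)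
    (hnc : ¬ ∀ y ∈ A, ∀ k ∈ K, k * y = y * k) :
    ∃ (r : ℕ) (_ : r.Prime) (R : Subgroup G), R ≤ K ∧ IsPGroup r R ∧
      A ≤ Subgroup.normalizer (R : Set G) ∧ ∃ y ∈ A, ∃ k ∈ R, y * k ≠ k * y := by
  by_contra hcon
  push Not at hcon
  apply hnc
  set H : Subgroup G := K ⊓ Subgroup.centralizer (A : Set G) with hH
  have hHK : H ≤ K := inf_le_left
  have h1 : H.relIndex K = 1 := by
    rw [Nat.eq_one_iff_not_exists_prime_dvd]
    intro r hr hdvd
    have : Fact r.Prime := ⟨hr⟩
    obtain ⟨R, hRK, hRp, hRi, hRn⟩ :=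
      Cfsg.Agent.Lib.Helper1.exists_invariant_sylow A K hAK hcop hsolv r
    have hRH : R ≤ H := by
      intro k hk
      refine Subgroup.mem_inf.mpr ⟨hRK hk, ?_⟩
      rw [Subgroup.mem_centralizer_iff]
      intro y hy
      exact hcon r hr R hRK hRp hRn y hy k hk
    apply hRi
    rw [← Subgroup.relIndex_mul_relIndex R H K hRH hHK]
    exact Dvd.dvd.mul_left hdvd _
  have h2 : K ≤ H := Subgroup.relIndex_eq_one.mp h1
  intro y hy k hk
  exact (Subgroup.mem_centralizer_iff.mp (Subgroup.mem_inf.mp (h2 hk)).2 y hy).symm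

end Cfsg.Agent.Lib.Helper76
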